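import Cfsg.Agent.H5.C7.Even.Roots
import Cfsg.Agent.H5.C7.Group

/-!
Characteristic two: with scalar middle parts all conjugates of the transvections of the second factor are pure
tensors.  At a conjugate moving one fibre least, the group of elements moving vectors only inside three fibres has
a self-normalising elementary abelian subgroup.
-/

set_option autoImplicit false
set_option linter.unusedSectionVars false

namespace Cfsg.Agent.H5.C7.Even

open Matrix
open Cfsg.Agent.H99.Tensor Cfsg.Agent.H99.TensorS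
open scoped Kronecker

variable {F : Type*} [Field F] {α : Type} [Fintype α] [DecidableEq α] {b : ℕ} {JA : Matrix α α F}
  {JB : Matrix (Fin b) (Fin b) F}

local notation "Ix" => α × Fin b

/-- The elements moving vectors only inside a subspace. -/
def devGroup {n : Type} [Fintype n] [DecidableEq n] (M : Subgroup (GL n F)) (W : Submodule F (n → F)) :
    Subgroup (GL n F) where
  carrier := {y | y ∈ M ∧ ∀ v, (y : Matrix n n F) *ᵥ v - v ∈ W}
  one_mem' := ⟨M.one_mem, fun v => by simp⟩
  mul_mem' {x y} hx hy := ⟨M.mul_mem hx.1 hy.1, fun v => by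
    rw [Units.val_mul, ← mulVec_mulVec]
    simpa using W.add_mem (hx.2 ((y : Matrix n n F) *ᵥ v)) (hy.2 v)⟩
  inv_mem' {x} hx := ⟨M.inv_mem hx.1, fun v => by
    have := W.neg_mem (hx.2 (((x⁻¹ : GL n F) : Matrix n n F) *ᵥ v))
    rwa [mulVec_mulVec, ← Units.val_mul, mul_inv_cancel, Units.val_one, one_mulVec, neg_sub] at this⟩

/-- The isometries of the second factor fixing two vectors and moving vectors only inside their span. -/
def Small (w u : Fin b → F) (k : Matrix (Fin b) (Fin b) F) : Prop :=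
  (∀ x, k *ᵥ x - x ∈ Submodule.span F ({w, u} : Set (Fin b → F))) ∧ k *ᵥ w = w ∧ k *ᵥ u = u

theorem Small.fix {w u : Fin b → F} {k : Matrix (Fin b) (Fin b) F} (h : Small w u k) {s : Fin b → F}
    (hs : s ∈ Submodule.span F ({w, u} : Set (Fin b → F))) : k *ᵥ s = s := by
  obtain ⟨a, c, rfl⟩ := Submodule.mem_span_pair.1 hs
  rw [mulVec_add, mulVec_smul, mulVec_smul, h.2.1, h.2.2]

theorem Small.apply_mul {w u : Fin b → F} {k k' : Matrix (Fin b) (Fin b) F} (h : Small w u k) (h' : Small w u k')
    (x : Fin b → F) : (k * k') *ᵥ x = x + (k *ᵥ x - x) + (k' *ᵥ x - x) := by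
  rw [← mulVec_mulVec]
  conv_lhs => rw [show k' *ᵥ x = x + (k' *ᵥ x - x) by abel, mulVec_add, h.fix (h'.1 x)]
  abel

theorem Small.mul {w u : Fin b → F} {k k' : Matrix (Fin b) (Fin b) F} (h : Small w u k) (h' : Small w u k') :
    Small w u (k * k') := by
  refine ⟨fun x => ?_, by rw [← mulVec_mulVec, h'.2.1, h.2.1], by rw [← mulVec_mulVec, h'.2.2, h.2.2]⟩
  rw [h.apply_mul h', show x + (k *ᵥ x - x) + (k' *ᵥ x - x) - x = (k *ᵥ x - x) + (k' *ᵥ x - x) by abel]
  exact Submodule.add_mem _ (h.1 x) (h'.1 x)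

theorem Small.comm {w u : Fin b → F} {k k' : Matrix (Fin b) (Fin b) F} (h : Small w u k) (h' : Small w u k') :
    k * k' = k' * k :=
  Matrix.ext_of_mulVec_single fun i => by rw [h.apply_mul h', h'.apply_mul h]; abel

theorem Small.sq (two : (2 : F) = 0) {w u : Fin b → F} {k : Matrix (Fin b) (Fin b) F} (h : Small w u k) :
    k * k = 1 :=
  Matrix.ext_of_mulVec_single fun i => by
    rw [h.apply_mul h, one_mulVec, add_assoc, ← two_smul F (k *ᵥ Pi.single i 1 - Pi.single i 1), two, zero_smul,
      add_zero]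

variable {Q : (α × Fin b → F) → F} {M : Subgroup (GL (α × Fin b) F)} (H : OvR JA JB Q M) (two : (2 : F) = 0)
include H

theorem OvR.small_trans {w u v : Fin b → F} (huw : bf JB w u = 0) (hv : v = w ∨ v = u) :
    Small w u (1 + H99.TensorS.rk JB v v) := by
  have hvs : v ∈ Submodule.span F ({w, u} : Set (Fin b → F)) := Submodule.subset_span (by simpa using hv)
  have hperp : bf JB v w = 0 ∧ bf JB v u = 0 := by
    rcases hv with rfl | rfl
    · exact ⟨H.sB.self _, huw⟩
    · exact ⟨H.sB.zero_comm.1 huw, H.sB.self _⟩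
  refine ⟨fun x => ?_, ?_, ?_⟩
  · rw [add_mulVec, one_mulVec, add_sub_cancel_left, H99.TensorS.rk_mulVec]
    exact Submodule.smul_mem _ _ hvs
  · rw [add_mulVec, one_mulVec, H99.TensorS.rk_mulVec, hperp.1, zero_smul, add_zero]
  · rw [add_mulVec, one_mulVec, H99.TensorS.rk_mulVec, hperp.2, zero_smul, add_zero]

variable [Finite F] [Nonempty α] (hsc : ∀ C : Matrix α α F, InK JA JB M C → ∃ c : F, C = c • (1 : Matrix α α F))
include two hsc

/-- All conjugates of the transvections of the second factor are pure. -/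
theorem OvR.root_pure {B₀ : Matrix Ix Ix F} (hB₀ : IsConjRoot JA JB M B₀) : IsPure (1 + B₀) := by
  classical
  by_contra hnp₀
  have hb := H.six
  set J := JA ⊗ₖ JB with hJ
  -- a non-pure root moving a fibre least
  have hex : ∃ n : ℕ, ∃ (B : Matrix Ix Ix F) (w : Fin b → F), IsConjRoot JA JB M B ∧ ¬ IsPure (1 + B) ∧ w ≠ 0 ∧
      (B * lft α w).rank = n :=
    ⟨_, B₀, Pi.single ⟨0, by omega⟩ 1, hB₀, hnp₀, by simp [Pi.single_eq_zero_iff], rfl⟩
  obtain ⟨B, w, hB, hnp, hw, hρ⟩ := Nat.find_spec hex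
  set ρ := Nat.find hex with hρdef
  have hmin : ∀ (B' : Matrix Ix Ix F) (v : Fin b → F), IsConjRoot JA JB M B' → ¬ IsPure (1 + B') → v ≠ 0 →
      ρ ≤ (B' * lft α v).rank := fun B' v h1 h2 h3 => Nat.find_min' hex ⟨B', v, h1, h2, h3, rfl⟩
  set e := (1 : Matrix Ix Ix F) + B with he
  have heM : InM M e := H.root_mem hB
  have hee : e * e = 1 := H.inv_sq two hB
  -- the kernels of the contractions
  have hker : ∀ (B : Matrix Ix Ix F), IsConjRoot JA JB M B → ¬ IsPure (1 + B) → (B * lft α w).rank = ρ →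
      ∀ p, p ≠ 0 → bf JB p w = 0 → ∀ k, (phi α JB p * (B * lft α w)) *ᵥ k = 0 → (B * lft α w) *ᵥ k = 0 := by
    intro B hB hnp hρ p hp hpw k hk
    have hee := H.inv_sq two hB
    refine ker_of_rank_le _ _ ?_ hk
    have hB' := H.root_conj (H.root_one (α := α) hp) (H.root_mem hB)
    rw [H.adj_inv two hB] at hB'
    have h := hmin _ w hB' (H.conj_not_pure two hsc hB hnp hp) hw
    rw [show (1 + B) * ((1 : Matrix α α F) ⊗ₖ H99.TensorS.rk JB p p) * (1 + B) * lft α w =
      (1 + B) * lft α p * (phi α JB p * ((1 + B) * lft α w)) by rw [← lft_phi]; simp only [Matrix.mul_assoc],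
      rank_mul_inj _ (H.root_inj hee hp), Matrix.add_mul, Matrix.one_mul, Matrix.mul_add, phi_lft, hpw, zero_smul,
      zero_add, ← hρ] at h
    exact h
  set Qw := B * lft α w with hQw
  set x := phi α JB w * Qw with hx
  have hxe : phi α JB w * (e * lft α w) = x := by
    rw [hx, hQw, he, Matrix.add_mul, Matrix.one_mul, Matrix.mul_add, phi_lft, H.sB.self, zero_smul, zero_add]
  -- the square of the contraction does not vanish
  have hxx : x * x ≠ 0 := by
    intro hxx
    set B' := e * ((1 : Matrix α α F) ⊗ₖ H99.TensorS.rk JB w w) * e with hB'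
    have hB'r : IsConjRoot JA JB M B' := by
      have := H.root_conj (H.root_one (α := α) hw) heM
      rwa [H.adj_inv two hB] at this
    have hB'np : ¬ IsPure (1 + B') := H.conj_not_pure two hsc hB hnp hw
    have eq' : B' * lft α w = e * lft α w * x := by
      rw [hB', ← hxe, ← lft_phi]; simp only [Matrix.mul_assoc]
    have hρ' : (B' * lft α w).rank = ρ := by
      refine le_antisymm ?_ (hmin _ w hB'r hB'np hw)
      rw [eq', rank_mul_inj _ (H.root_inj hee hw), hx]
      exact (rank_mul_le_right _ _).trans hρ.le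
    have h0 : B' * lft α w = 0 := Matrix.ext_of_mulVec_single fun i => by
      rw [zero_mulVec]
      refine hker B' hB'r hB'np hρ' w hw (H.sB.self w) _ ?_
      rw [eq', ← Matrix.mul_assoc, hxe, hxx, zero_mulVec]
    refine hB'np (H.pure_of_layer hsc hw hw (H.root_mem hB'r) (h := 1) ?_ (by rw [det_one]; exact isUnit_one))
    rw [Matrix.add_mul, Matrix.one_mul, h0, add_zero, Matrix.mul_one]
  -- the three fibres
  obtain ⟨u, hwu, huw⟩ := H.sB.exists_indep (by rw [Fintype.card_fin]; omega) w
  have hu : u ≠ 0 := fun h => huw 0 (by rw [h, zero_smul])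
  set W : Submodule F (α × Fin b → F) := LinearMap.range (lft α w).mulVecLin ⊔
    LinearMap.range (lft α u).mulVecLin ⊔ LinearMap.range Qw.mulVecLin with hW
  have hLw : ∀ c, lft α w *ᵥ c ∈ W := fun c =>
    Submodule.mem_sup_left (Submodule.mem_sup_left ⟨c, rfl⟩)
  have hLu : ∀ c, lft α u *ᵥ c ∈ W := fun c =>
    Submodule.mem_sup_left (Submodule.mem_sup_right ⟨c, rfl⟩)
  have hLQ : ∀ c, Qw *ᵥ c ∈ W := fun c => Submodule.mem_sup_right ⟨c, rfl⟩
  set V := devGroup M W with hV
  haveI : Finite (GL (α × Fin b) F) := inferInstance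
  let U : Subgroup V :=
    { carrier := {y | ∃ k, ((y : GL (α × Fin b) F) : Matrix Ix Ix F) = (1 : Matrix α α F) ⊗ₖ k ∧ Small w u k}
      one_mem' := ⟨1, by simp, ⟨fun x => by simp, by simp, by simp⟩⟩
      mul_mem' := by
        rintro y y' ⟨k, hk, h⟩ ⟨k', hk', h'⟩
        exact ⟨k * k', by rw [Subgroup.coe_mul, Units.val_mul, hk, hk', ← mul_kronecker_mul, Matrix.one_mul],
          h.mul h'⟩
      inv_mem' := by
        rintro y ⟨k, hk, h⟩
        refine ⟨k, ?_, h⟩
        rw [Subgroup.coe_inv]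
        refine Units.inv_eq_of_mul_eq_one_right ?_
        rw [hk, ← mul_kronecker_mul, Matrix.one_mul, h.sq two, one_kronecker_one] }
  have hUmem : ∀ y : V, y ∈ U ↔ ∃ k, ((y : GL (α × Fin b) F) : Matrix Ix Ix F) = (1 : Matrix α α F) ⊗ₖ k ∧
      Small w u k := fun y => Iff.rfl
  have : Fact (Nat.Prime 2) := ⟨Nat.prime_two⟩
  have hUp : IsPGroup 2 U := by
    rintro ⟨y, k, hk, h⟩
    refine ⟨1, Subtype.ext (Subtype.ext (Units.ext ?_))⟩
    rw [pow_one, pow_two, Subgroup.coe_mul, Subgroup.coe_mul, Units.val_mul, hk, ← mul_kronecker_mul,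
      Matrix.one_mul, h.sq two, one_kronecker_one]
    rfl
  have hUc : ∀ a ∈ U, ∀ c ∈ U, a * c = c * a := by
    rintro a ⟨k, hk, h⟩ c ⟨k', hk', h'⟩
    refine Subtype.ext (Units.ext ?_)
    rw [Subgroup.coe_mul, Subgroup.coe_mul, Units.val_mul, Units.val_mul, hk, hk', ← mul_kronecker_mul,
      ← mul_kronecker_mul, h.comm h']
  -- pure members
  have hpureU : ∀ y : V, IsPure ((y : GL (α × Fin b) F) : Matrix Ix Ix F) → y ∈ U := by
    rintro y ⟨G, K, hGK⟩
    set S := Submodule.span F ({w, u} : Set (Fin b → F)) with hS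
    have hwS : w ∈ S := Submodule.subset_span (by simp)
    have huS : u ∈ S := Submodule.subset_span (by simp)
    have hdev : ∀ (c : α → F) (q p : Fin b → F), bf JB p w = 0 → bf JB p u = 0 →
        bf JB p (K *ᵥ q) • (G *ᵥ c) = bf JB p q • c := by
      intro c q
      have hmem := y.2.2 (H99.TensorS.pv c q)
      rw [hGK, H99.TensorS.kron_pv] at hmem
      obtain ⟨a, ha, k', hk', hak⟩ := Submodule.mem_sup.1 hmem
      obtain ⟨a₁, ⟨c₁, rfl⟩, a₂, ⟨c₂, rfl⟩, rfl⟩ := Submodule.mem_sup.1 ha
      obtain ⟨k, rfl⟩ := hk'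
      simp only [mulVecLin_apply] at hak
      have hphi : ∀ p, bf JB p w = 0 → bf JB p u = 0 →
          (phi α JB p * Qw) *ᵥ k = bf JB p (K *ᵥ q) • (G *ᵥ c) - bf JB p q • c := by
        intro p h1 h2
        have := congrArg (phi α JB p *ᵥ ·) hak
        simp only [mulVec_add, mulVec_sub, lft_mulVec, phi_pv, h1, h2, zero_smul, zero_add] at this
        rwa [mulVec_mulVec] at this
      obtain ⟨p, hp, hpp⟩ := exists_perp (J := JB) ![w, u, q, K *ᵥ q] (by rw [Fintype.card_fin]; omega)
      have h4 : ∀ i, bf JB p (![w, u, q, K *ᵥ q] i) = 0 := fun i => H.sB.zero_comm.1 (hpp i)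
      have hk : Qw *ᵥ k = 0 := by
        refine hker B hB hnp hρ p hp (h4 0) k ?_
        rw [hphi p (h4 0) (h4 1), show bf JB p (K *ᵥ q) = 0 from h4 3, show bf JB p q = 0 from h4 2, zero_smul,
          zero_smul, sub_zero]
      intro p h1 h2
      have := hphi p h1 h2
      rw [← mulVec_mulVec, hk, mulVec_zero, eq_comm, sub_eq_zero] at this
      exact this
    obtain ⟨q, hqS⟩ : ∃ q, q ∉ S := by
      by_contra hc
      push Not at hc
      have h1 : S = ⊤ := eq_top_iff.2 fun z _ => hc z
      have h2 : Module.finrank F S ≤ 2 := by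
        refine (finrank_span_le_card _).trans ?_
        simp only [Set.toFinset_insert, Set.toFinset_singleton]
        exact Finset.card_le_two
      rw [h1, finrank_top, Module.finrank_fintype_fun_eq_card, Fintype.card_fin] at h2
      omega
    obtain ⟨p, hpS, hpq⟩ := H.sB.sep hqS
    set γ := bf JB p (K *ᵥ q) with hγ
    have hG : ∀ c, γ • (G *ᵥ c) = c := fun c => by
      rw [hdev c q p (hpS w hwS) (hpS u huS), hpq, one_smul]
    have hγ0 : γ ≠ 0 := by
      intro h0
      have := congrFun (hG fun _ => 1) (Classical.arbitrary α)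
      rw [h0, zero_smul] at this
      exact zero_ne_one this
    have hG' : G = γ⁻¹ • 1 := Matrix.ext_of_mulVec_single fun i => by
      rw [smul_mulVec, one_mulVec]
      conv_rhs => rw [← hG (Pi.single i 1)]
      rw [smul_smul, inv_mul_cancel₀ hγ0, one_smul]
    set K' := γ⁻¹ • K with hK'
    have hy : ((y : GL (α × Fin b) F) : Matrix Ix Ix F) = (1 : Matrix α α F) ⊗ₖ K' := by
      rw [hGK, hG', hK', smul_kronecker, kronecker_smul]
    have hiso : adj JB JB K' * K' = 1 := by
      have := H.unit (X := ((y : GL (α × Fin b) F) : Matrix Ix Ix F)) ⟨_, y.2.1, rfl⟩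
      rw [hy, adj_kron, ← mul_kronecker_mul, adj_one H.sA.unit, Matrix.one_mul] at this
      obtain ⟨i⟩ := ‹Nonempty α›
      ext a c
      have := congrFun (congrFun this (i, a)) (i, c)
      simpa [Matrix.one_apply, Prod.ext_iff] using this
    have hmove : ∀ z, K' *ᵥ z - z ∈ S := by
      intro z
      by_contra hz
      obtain ⟨r, hrS, hr⟩ := H.sB.sep hz
      have := congrFun (hdev (fun _ => 1) z r (hrS w hwS) (hrS u huS)) (Classical.arbitrary α)
      rw [hG', smul_mulVec, one_mulVec, smul_smul] at this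
      simp only [Pi.smul_apply, smul_eq_mul, mul_one] at this
      rw [H99.TensorS.bf_sub_right, hK', smul_mulVec, H99.TensorS.bf_smul_right, mul_comm, this, sub_self] at hr
      exact zero_ne_one hr
    have hiso0 : ∀ s ∈ S, ∀ t ∈ S, bf JB s t = 0 := by
      intro s hs t ht
      obtain ⟨a, c, rfl⟩ := Submodule.mem_span_pair.1 hs
      obtain ⟨a', c', rfl⟩ := Submodule.mem_span_pair.1 ht
      simp [H99.TensorS.bf_add_left, H99.TensorS.bf_add_right, H99.TensorS.bf_smul_left, H99.TensorS.bf_smul_right,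
        H.sB.self, hwu, H.sB.zero_comm.1 hwu]
    have hfix : ∀ s ∈ S, K' *ᵥ s = s := by
      intro s hs
      have hKs : K' *ᵥ s ∈ S := by simpa using S.add_mem (hmove s) hs
      refine sub_eq_zero.1 (H.sB.eq_zero fun z => ?_)
      have h1 := bf_mulVec H.sB hiso s z
      rw [show K' *ᵥ z = z + (K' *ᵥ z - z) by abel, H99.TensorS.bf_add_right,
        hiso0 _ hKs _ (hmove z), add_zero] at h1
      rw [H99.TensorS.bf_sub_left, h1, sub_self]
    exact (hUmem y).2 ⟨K', hy, hmove, hfix w hwS, hfix u huS⟩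
  -- elements commuting with or moving a transvection
  have hlayer : ∀ (y : V) (v : Fin b → F) (N : Matrix (Fin b) (Fin b) F), v ≠ 0 →
      ((y : GL (α × Fin b) F) : Matrix Ix Ix F) * ((1 : Matrix α α F) ⊗ₖ H99.TensorS.rk JB v v) =
        ((1 : Matrix α α F) ⊗ₖ N) * ((y : GL (α × Fin b) F) : Matrix Ix Ix F) → y ∈ U := by
    intro y v N hv hN
    set Y := ((y : GL (α × Fin b) F) : Matrix Ix Ix F) with hY
    have hYM : InM M Y := ⟨_, y.2.1, rfl⟩
    set Ys := adj J J Y with hYs
    have hN' : (1 : Matrix α α F) ⊗ₖ N = Y * lft α v * (phi α JB v * Ys) := by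
      have := congrArg (· * Ys) hN
      simp only [Matrix.mul_assoc, hYs, hJ, H.unit' hYM, Matrix.mul_one] at this
      rw [← this, ← lft_phi]
      simp only [Matrix.mul_assoc, hYs, hJ]
    have hYinj : Function.Injective (Y * lft α v).mulVec := fun c c' h => lft_mulVec_inj hv (by
      have := congrArg (Ys *ᵥ ·) h
      simp only [mulVec_mulVec, ← Matrix.mul_assoc, hYs, hJ, H.unit hYM, Matrix.one_mul] at this
      exact this)
    obtain ⟨z, hz⟩ : ∃ z, N *ᵥ z ≠ 0 := by
      by_contra hc
      push Not at hc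
      have hN0 : N = 0 := Matrix.ext_of_mulVec_single fun i => by rw [hc, zero_mulVec]
      obtain ⟨v', hv'⟩ := H.sB.exists_one hv
      have h := congrArg (· * (Y * lft α v')) hN'
      simp only [hN0, kronecker_zero, Matrix.zero_mul, Matrix.mul_assoc] at h
      rw [← Matrix.mul_assoc Ys, hYs, hJ, H.unit hYM, Matrix.one_mul, phi_lft, hv', one_smul, Matrix.mul_one] at h
      exact one_ne_zero (congrFun (hYinj (a₁ := fun _ => (1 : F)) (a₂ := 0)
        (by rw [← h, zero_mulVec, zero_mulVec])) (Classical.arbitrary α))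
    set h := phi α JB v * (Ys * lft α z) with hh
    have e1 : lft α (N *ᵥ z) = Y * lft α v * h := by
      have := congrArg (· * lft α z) hN'
      simp only [kron_lft, Matrix.mul_one] at this
      rw [this, hh]
      simp only [Matrix.mul_assoc]
    have hinj : Function.Injective h.mulVec := fun c c' hcc => lft_mulVec_inj hz (by
      rw [e1, ← mulVec_mulVec, ← mulVec_mulVec c', hcc])
    have hu := isUnit_det_of_inj hinj
    refine hpureU y (H.pure_of_layer hsc hv hz hYM (h := h⁻¹) ?_ (isUnit_nonsing_inv_det _ hu))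
    rw [e1, Matrix.mul_assoc _ h, mul_nonsing_inv _ hu, Matrix.mul_one]
  -- the two transvections
  have hel : ∀ v : Fin b → F, v = w ∨ v = u → ∃ a : V, a ∈ U ∧
      ((a : GL (α × Fin b) F) : Matrix Ix Ix F) = (1 : Matrix α α F) ⊗ₖ (1 + H99.TensorS.rk JB v v) := by
    intro v hv
    obtain ⟨a, ha, hae⟩ := H.right (α := α) v 1
    rw [one_smul] at hae
    have hav : a ∈ V := ⟨ha, fun z => by
      rw [hae, kronecker_add, one_kronecker_one, add_mulVec, one_mulVec, add_sub_cancel_left, ← lft_phi,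
        ← mulVec_mulVec]
      rcases hv with rfl | rfl
      · exact hLw _
      · exact hLu _⟩
    exact ⟨⟨a, hav⟩, (hUmem _).2 ⟨_, hae, H.small_trans hwu hv⟩, hae⟩
  have hN : ∀ y : V, (∀ a ∈ U, y * a * y⁻¹ ∈ U) → y ∈ U := by
    intro y hy
    obtain ⟨a, haU, hae⟩ := hel w (Or.inl rfl)
    obtain ⟨k, hk, -⟩ := (hUmem _).1 (hy a haU)
    rw [Subgroup.coe_mul, Subgroup.coe_mul, Subgroup.coe_inv, Units.val_mul, Units.val_mul, hae] at hk
    refine hlayer y w (k - 1) hw ?_
    set Y := ((y : GL (α × Fin b) F) : Matrix Ix Ix F) with hY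
    have h2 := congrArg (· * Y) hk
    simp only [Matrix.mul_assoc, hY, Units.inv_mul, Matrix.mul_one] at h2
    rw [← hY, kronecker_add, one_kronecker_one, Matrix.mul_add, Matrix.mul_one] at h2
    have e3 : (1 : Matrix α α F) ⊗ₖ (k - 1) = (1 : Matrix α α F) ⊗ₖ k - 1 := by
      rw [eq_sub_iff_add_eq, ← one_kronecker_one (α := F) (m := α) (n := Fin b), ← kronecker_add, sub_add_cancel]
    rw [e3, Matrix.sub_mul, Matrix.one_mul, ← h2, add_sub_cancel_left]
  obtain ⟨O, hOn, hOodd, hOU, hOdis, -⟩ := selfnormalizing_complement U hUp hUc hN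
  -- both transvections invert the complement
  have hinv : ∀ v : Fin b → F, v = w ∨ v = u → v ≠ 0 → ∀ a : V, a ∈ U →
      ((a : GL (α × Fin b) F) : Matrix Ix Ix F) = (1 : Matrix α α F) ⊗ₖ (1 + H99.TensorS.rk JB v v) →
      ∀ o ∈ O, a * o * a⁻¹ = o⁻¹ := by
    intro v hv hv0 a haU hae
    have haa : a * a = 1 := by
      refine Subtype.ext (Units.ext ?_)
      rw [Subgroup.coe_mul, Units.val_mul, hae, ← mul_kronecker_mul, Matrix.one_mul, (H.small_trans hwu hv).sq two,
        one_kronecker_one]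
      rfl
    let φ : O →* O := ((MulAut.conj a).toMonoidHom.comp O.subtype).codRestrict O fun o => hOn.conj_mem _ o.2 a
    have hφ : ∀ o : O, ((φ o : O) : V) = a * o * a⁻¹ := fun o => rfl
    have hfpf : MonoidHom.FixedPointFree φ := by
      intro o ho
      have h1 : a * (o : V) * a⁻¹ = o := congrArg Subtype.val ho
      refine Subtype.ext (hOdis _ o.2 (hlayer _ v (H99.TensorS.rk JB v v) hv0 ?_))
      have h2 : a * (o : V) = o * a := by rw [← mul_inv_eq_iff_eq_mul]; exact h1
      have h3 := congrArg (fun y : V => ((y : GL (α × Fin b) F) : Matrix Ix Ix F)) h2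
      simp only [Subgroup.coe_mul, Units.val_mul, hae, kronecker_add, one_kronecker_one, Matrix.add_mul,
        Matrix.mul_add, Matrix.one_mul, Matrix.mul_one, add_right_inj] at h3
      exact h3.symm
    have hinvol : Function.Involutive φ := fun o => Subtype.ext (by
      rw [hφ, hφ, show a * (a * (o : V) * a⁻¹) * a⁻¹ = (a * a) * o * (a * a)⁻¹ by group, haa, one_mul, inv_one,
        mul_one])
    intro o ho
    exact congrArg Subtype.val (congrFun (hfpf.coe_eq_inv_of_involutive hinvol) ⟨o, ho⟩)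
  obtain ⟨r, hrU, hre⟩ := hel w (Or.inl rfl)
  obtain ⟨s, hsU, hse⟩ := hel u (Or.inr rfl)
  have hcent : ∀ y : V, r * s * y = y * (r * s) := by
    intro y
    obtain ⟨o, ho, c, hc, rfl⟩ := hOU y
    have h1 := hinv w (Or.inl rfl) hw r hrU hre _ (O.inv_mem ho)
    have h2 := hinv u (Or.inr rfl) hu s hsU hse o ho
    rw [inv_inv] at h1
    have h3 : r * s * o = o * (r * s) := by
      calc r * s * o = r * (s * o * s⁻¹) * r⁻¹ * (r * s) := by group
        _ = _ := by rw [h2, h1]
    have h4 : r * s * c = c * (r * s) := hUc _ (U.mul_mem hrU hsU) _ hc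
    calc r * s * (o * c) = r * s * o * c := by group
      _ = o * (r * s * c) := by rw [h3]; group
      _ = _ := by rw [h4]; group
  -- a conjugate inside the three fibres
  obtain ⟨g, hg, hge⟩ : InM M (e * ((1 : Matrix α α F) ⊗ₖ (1 + H99.TensorS.rk JB w w)) * e) := by
    have := H.right (α := α) w 1
    rw [one_smul] at this
    exact (heM.mul this).mul heM
  have hge' : (g : Matrix Ix Ix F) = 1 + e * lft α w * (phi α JB w * e) := by
    have key : ∀ e R : Matrix Ix Ix F, e * (1 + R) * e = e * e + e * R * e := fun e R => by noncomm_ring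
    rw [hge, kronecker_add, one_kronecker_one, key, hee, ← lft_phi]
    simp only [Matrix.mul_assoc]
  have hgV : g ∈ V := ⟨hg, fun z => by
    rw [hge', add_mulVec, one_mulVec, add_sub_cancel_left, ← mulVec_mulVec, he, Matrix.add_mul, Matrix.one_mul,
      add_mulVec]
    exact W.add_mem (hLw _) (hLQ _)⟩
  have hc := congrArg (fun y : V => ((y : GL (α × Fin b) F) : Matrix Ix Ix F)) (hcent ⟨g, hgV⟩)
  simp only [Subgroup.coe_mul, Units.val_mul, hre, hse, ← mul_kronecker_mul, Matrix.one_mul] at hc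
  have hk : (1 + H99.TensorS.rk JB w w) * (1 + H99.TensorS.rk JB u u) =
      1 + (H99.TensorS.rk JB w w + H99.TensorS.rk JB u u) := by
    rw [Matrix.mul_add, Matrix.mul_one, Matrix.add_mul, Matrix.one_mul, H99.TensorS.rk_mul, hwu, zero_smul,
      add_zero, add_assoc]
  rw [hk, kronecker_add, one_kronecker_one, kronecker_add, ← lft_phi, ← lft_phi, hge'] at hc
  set Z := lft α w * phi α JB w + lft α u * phi α JB u with hZ
  set B' := e * lft α w * (phi α JB w * e) with hB'
  have hcomm : Z * B' = B' * Z := by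
    simp only [Matrix.add_mul, Matrix.mul_add, Matrix.one_mul, Matrix.mul_one] at hc
    have := sub_eq_zero.2 hc
    rw [← sub_eq_zero]
    rw [← this]
    abel
  obtain ⟨w', hw'u, hw'w⟩ := H.sB.sep (S := Submodule.span F ({u} : Set (Fin b → F))) (a := w) fun h => by
    obtain ⟨t, ht⟩ := Submodule.mem_span_singleton.1 h
    rcases eq_or_ne t 0 with rfl | ht0
    · exact hw (by rw [← ht, zero_smul])
    · exact huw t⁻¹ (by rw [← ht, smul_smul, inv_mul_cancel₀ ht0, one_smul])
  have e0 : phi α JB w * Z = 0 := by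
    rw [hZ, Matrix.mul_add, ← Matrix.mul_assoc, ← Matrix.mul_assoc, phi_lft, phi_lft, H.sB.self, hwu, zero_smul,
      Matrix.zero_mul, Matrix.zero_mul, add_zero]
  have e1 : Z * lft α w' = lft α w := by
    rw [hZ, Matrix.add_mul, Matrix.mul_assoc, Matrix.mul_assoc, phi_lft, phi_lft, H.sB.swap w' w, hw'w,
      neg_val two, one_smul, Matrix.mul_one,
      H.sB.zero_comm.1 (hw'u u (Submodule.mem_span_singleton_self u)), zero_smul, Matrix.mul_zero, add_zero]
  refine hxx ?_
  calc x * x = phi α JB w * (e * lft α w) * (phi α JB w * (e * lft α w)) := by rw [hxe]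
    _ = phi α JB w * ((B' * Z) * lft α w') := by
      rw [Matrix.mul_assoc B', e1, hB']
      simp only [Matrix.mul_assoc]
    _ = 0 := by rw [← hcomm, ← Matrix.mul_assoc, ← Matrix.mul_assoc, e0, Matrix.zero_mul, Matrix.zero_mul]

/-- A conjugate of a transvection of the second factor lies in one factor. -/
theorem OvR.root_split {B : Matrix Ix Ix F} (hB : IsConjRoot JA JB M B) :
    (∃ K : Matrix α α F, B = K ⊗ₖ (1 : Matrix (Fin b) (Fin b) F)) ∨
      ∃ N : Matrix (Fin b) (Fin b) F, B = (1 : Matrix α α F) ⊗ₖ N :=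
  H.pure_split two hB (H.root_pure two hsc hB)

end Cfsg.Agent.H5.C7.Even
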