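import Cfsg.Agent.H5.C7.MonoTwo
import Cfsg.Agent.H5.C7.Even.Burnside
import Cfsg.Agent.H58.Wreath.Sp.Global

/-!
Characteristic two: in a group of isometries of the tensor power containing the factor transvections either the
conjugates of the transvections lie in one factor, or all monomial elements with one alternating part occur.
-/

set_option autoImplicit false
set_option linter.unusedSectionVars false

namespace Cfsg.Agent.H5.C7.Even

open Matrix
open Cfsg.Agent.H99.Tensor
open Cfsg.Agent.H99.TensorS (SympMat bf adj wedge ct phi el InK)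
open Cfsg.Agent.H58.Wreath.Sp (tens tens_unit rI_tensJ)
open scoped Kronecker

variable {F : Type*} [Field F] {ι : Type} [Fintype ι] [DecidableEq ι] {m : ℕ} {J : Matrix (Fin m) (Fin m) F}

local notation "MM" => Matrix (ι → Fin m) (ι → Fin m) F
local notation "mm" => Matrix (Fin m) (Fin m) F

theorem adj_tens_wm (hJ : IsUnit J.det) (k : ι → mm) :
    adj (tens ι J) (tens ι J) (wm 1 k : MM) = wm 1 fun l => adj J J (k l) := by
  have e : (tens ι J)⁻¹ = (wm 1 fun _ => J⁻¹ : MM) := inv_eq_right_inv (by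
    rw [tens, wm1_mul, ← wm_one]
    congr 1
    funext l
    exact mul_nonsing_inv J hJ)
  rw [adj, e, wm1_transpose, tens, wm1_mul, wm1_mul]
  rfl

theorem adj_tens_sl (hJ : IsUnit J.det) (i : ι) (A : mm) :
    adj (tens ι J) (tens ι J) (sl i A : MM) = sl i (adj J J A) := by
  rw [sl, adj_tens_wm hJ, sl]
  congr 1
  funext l
  by_cases hl : l = i
  · subst hl; simp
  · simp [hl, H99.TensorS.adj_one hJ]

theorem sympMat_tens_two (two : (2 : F) = 0) (hJ : SympMat J) [Nonempty ι] : SympMat (tens ι J) := by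
  refine ⟨?_, fun f => ?_, tens_unit hJ.unit⟩
  · rw [H58.Wreath.Sp.tens_transpose hJ, show (-1 : F) = 1 from neg_val two 1, one_pow, one_smul, neg_mat two]
  · rw [tens, wm_apply]
    exact Finset.prod_eq_zero (Finset.mem_univ (Classical.arbitrary ι)) (hJ.diag _)

theorem bf_comp {κ κ' : Type} [Fintype κ] [DecidableEq κ] [Fintype κ'] [DecidableEq κ'] (e : κ ≃ κ')
    (T : Matrix κ κ F) (u v : κ' → F) : bf T (u ∘ e) (v ∘ e) = bf (T.submatrix e.symm e.symm) u v := by
  rw [H99.TensorS.bf_eq_sum, H99.TensorS.bf_eq_sum, ← Equiv.sum_comp e]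
  refine Finset.sum_congr rfl fun i _ => ?_
  rw [← Equiv.sum_comp e]
  simp

/-- A tensor with one factor and a coordinate vector of the others is pure. -/
theorem pure_single (i : ι) (p : {l : ι // l ≠ i} → Fin m) (w : Fin m → F) :
    (H99.TensorS.pv (Pi.single p (1 : F)) w) ∘ (eI i) =
      C7.pv fun l => if h : l = i then w else Pi.single (p ⟨l, h⟩) 1 := by
  funext f
  simp only [Function.comp_apply, H99.TensorS.pv, C7.pv]
  rw [← Finset.mul_prod_erase _ _ (Finset.mem_univ i), dif_pos rfl, mul_comm (w (f i))]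
  have e2 : (eI i f).2 = f i := rfl
  have e1 : ∀ l : {l : ι // l ≠ i}, (eI i f).1 l = f l := fun l => by simp [eI_apply]
  rw [e2]
  congr 1
  by_cases hp : (eI i f).1 = p
  · rw [hp, Pi.single_eq_same, Finset.prod_eq_one]
    intro l hl
    have hli := (Finset.mem_erase.1 hl).1
    rw [dif_neg hli, ← hp, e1, Pi.single_eq_same]
  · rw [Pi.single_eq_of_ne hp]
    obtain ⟨l, hl⟩ := Function.ne_iff.1 hp
    rw [e1] at hl
    rw [eq_comm]
    refine Finset.prod_eq_zero (Finset.mem_erase.2 ⟨l.2, Finset.mem_univ _⟩) ?_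
    rw [dif_neg l.2, Pi.single_eq_of_ne hl]

variable {M : Subgroup (GL (ι → Fin m) F)} (H : SW0 J M) (two : (2 : F) = 0)
include H two

/-- The setting at one factor. -/
theorem ovr (hm : 6 ≤ m) (hι : 2 ≤ Fintype.card ι) (i : ι) {Qf : ((ι → Fin m) → F) → F}
    (qpolar : ∀ u v, Qf (u + v) = Qf u + Qf v + bf (tens ι J) u v) (qpure : ∀ w, Qf (C7.pv w) = 0)
    (qsmul : ∀ (c : F) (v : (ι → Fin m) → F), Qf (c • v) = c * c * Qf v)
    (qiso : ∀ y ∈ M, ∀ v, Qf ((y : MM) *ᵥ v) = Qf v) :
    OvR (tens {l : ι // l ≠ i} J) J (fun x => Qf (x ∘ eI i)) (slotM i M) := by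
  classical
  obtain ⟨r, hr⟩ : ∃ r, r ≠ i := Fintype.exists_ne_of_one_lt_card (by omega) i
  haveI : Nonempty {l : ι // l ≠ i} := ⟨⟨r, hr⟩⟩
  have hpol : ∀ u v : ({l : ι // l ≠ i} → Fin m) × Fin m → F, bf (tens ι J) (u ∘ eI i) (v ∘ eI i) =
      bf (tens {l : ι // l ≠ i} J ⊗ₖ J) u v := fun u v => by
    rw [bf_comp, ← rI_tensJ]
    rfl
  refine ⟨sympMat_tens_two two H.sJ, H.sJ, hm, fun u v => ?_, fun x w => ?_, fun y hy v => ?_, fun w d => ?_⟩
  · rw [← hpol, ← qpolar]
    rfl
  · -- the quadratic form vanishes on a fibre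
    have hb : ∀ x y : ({l : ι // l ≠ i} → Fin m) → F,
        bf (tens ι J) (H99.TensorS.pv x w ∘ eI i) (H99.TensorS.pv y w ∘ eI i) = 0 := fun x y => by
      rw [hpol, H99.TensorS.bf_pv, H.sJ.self, mul_zero]
    have key : ∀ S : Finset ({l : ι // l ≠ i} → Fin m),
        Qf (H99.TensorS.pv (∑ p ∈ S, x p • Pi.single p (1 : F)) w ∘ eI i) = 0 := by
      intro S
      induction S using Finset.induction with
      | empty =>
        have e : (H99.TensorS.pv (0 : ({l : ι // l ≠ i} → Fin m) → F) w) ∘ eI i =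
            (0 : F) • (H99.TensorS.pv (0 : ({l : ι // l ≠ i} → Fin m) → F) w ∘ eI i) := by
          funext f
          simp [H99.TensorS.pv]
        rw [Finset.sum_empty, e, qsmul, mul_zero, zero_mul]
      | insert p S hp ih =>
        have e : H99.TensorS.pv (∑ q ∈ insert p S, x q • Pi.single q (1 : F)) w ∘ eI i =
            H99.TensorS.pv (x p • Pi.single p (1 : F)) w ∘ eI i +
              H99.TensorS.pv (∑ q ∈ S, x q • Pi.single q (1 : F)) w ∘ eI i := by
          funext f
          simp only [Finset.sum_insert hp, Function.comp_apply, H99.TensorS.pv, Pi.add_apply]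
          ring
        have e' : H99.TensorS.pv (x p • Pi.single p (1 : F)) w ∘ eI i =
            x p • (H99.TensorS.pv (Pi.single p (1 : F)) w ∘ eI i) := by
          funext f
          simp only [Function.comp_apply, H99.TensorS.pv, Pi.smul_apply, smul_eq_mul]
          ring
        rw [e, qpolar, ih, hb, e', qsmul, pure_single, qpure, mul_zero, add_zero, add_zero]
    have := key Finset.univ
    rwa [← pi_eq_sum_univ'] at this
  · obtain ⟨x, hx, e⟩ := inM_slotM.1 (⟨y, hy, rfl⟩ : InM (slotM i M) (y : Matrix _ _ F))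
    have e' : ((y : Matrix _ _ F) *ᵥ v) ∘ eI i = (x : MM) *ᵥ (v ∘ eI i) := by
      rw [← e, rI]
      funext f
      simp only [Function.comp_apply, Matrix.reindexAlgEquiv_apply, Matrix.reindex_apply]
      rw [Matrix.submatrix_mulVec_equiv, Equiv.symm_symm, Function.comp_apply, Equiv.symm_apply_apply]
    show Qf (((y : Matrix _ _ F) *ᵥ v) ∘ eI i) = _
    rw [e', qiso x hx]
  · obtain ⟨y, hy, e⟩ := H.slot i w d
    exact inM_slotM.2 ⟨y, hy, by rw [e, rI_sl_self]⟩

omit two in
/-- The middle parts at one factor are closed. -/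
theorem cl_inK {i : ι} {Qf : (({l : ι // l ≠ i} → Fin m) × Fin m → F) → F}
    (O : OvR (tens {l : ι // l ≠ i} J) J Qf (slotM i M)) :
    Cl J M (fun l : {l : ι // l ≠ i} => l.1) Finset.univ (InK (tens {l : ι // l ≠ i} J) J (slotM i M)) where
  add X Y := O.inK_add
  conj l _ g hg X hX := by
    rw [← adj_tens_sl H.sJ.unit]
    refine O.inK_conj hX ?_
    obtain ⟨y, hy, e⟩ := hg.1
    exact inM_slotM.2 ⟨y, hy, by rw [e, rI_sl_ne i l]⟩

/-- Splitting off one factor. -/
theorem step_two {κ : Type} [Fintype κ] [DecidableEq κ] {σ : κ → ι} {S : Matrix (κ → Fin m) (κ → Fin m) F → Prop}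
    (C : Cl J M σ Finset.univ S) (hm : 6 ≤ m) {r : κ} {X : Matrix (κ → Fin m) (κ → Fin m) F} (hX : S X) :
    Fac r 1 X ∨ ∃ (X' : Matrix (κ → Fin m) (κ → Fin m) F) (B : mm), X' ≠ 0 ∧ S X' ∧ (IsN J B ∨ IsT J B) ∧
      Fac r B X' ∧ ∀ (l : κ) (D : mm), l ≠ r → Fac l D X → Fac l D X' := by
  have hJ := H.sJ
  set Z := rI r X with hZ
  set Nr : (Fin m → F) → Matrix (κ → Fin m) (κ → Fin m) F := fun v => sl r (H99.TensorS.rk J v v) with hNr
  have hN : ∀ v, rI r (Nr v) = (1 : Matrix _ _ F) ⊗ₖ H99.TensorS.rk J v v := fun v => rI_sl_self r _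
  have hW : ∀ u v, rI r (Nr u * X * Nr v + Nr v * X * Nr u) =
      ct _ J Z u v ⊗ₖ H99.TensorS.rk J u v + ct _ J Z v u ⊗ₖ H99.TensorS.rk J v u := fun u v => by
    rw [map_add, map_mul, map_mul, map_mul, map_mul, hN, hN, ← hZ, one_kron_rk_conj, one_kron_rk_conj]
  by_cases h1 : ∀ u v : Fin m → F, u ≠ 0 → (∀ s : F, v ≠ s • u) → bf J u v = 0 →
      ct _ J Z u v = 0
  · refine Or.inl ?_
    have h0 : ∀ v, ct _ J Z v v = 0 := by
      intro v
      rcases eq_or_ne v 0 with rfl | hv
      · rw [← zero_smul F (0 : Fin m → F), H99.TensorS.ct_smul_left, zero_smul]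
      obtain ⟨u, hvu, hu⟩ := hJ.exists_indep (by rw [Fintype.card_fin]; omega) v
      have huv := hJ.zero_comm.1 hvu
      have hu0 : u ≠ 0 := fun h => hu 0 (by rw [h, zero_smul])
      have hvu' : ∀ s : F, v ≠ s • u := fun s hs => by
        rcases eq_or_ne s 0 with rfl | hs0
        · exact hv (by rw [hs, zero_smul])
        · exact hu s⁻¹ (by rw [hs, smul_smul, inv_mul_cancel₀ hs0, one_smul])
      have h3 := h1 (u + v) v (fun h => hvu' (-1) (by rw [neg_one_smul]; exact eq_neg_of_add_eq_zero_right h))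
        (fun s hs => ?_) (by rw [H99.TensorS.bf_add_left, huv, hJ.self, add_zero])
      · rwa [H99.TensorS.ct_add_left, h1 u v hu0 hvu' huv, zero_add] at h3
      · rcases eq_or_ne s 1 with rfl | hs1
        · exact hu0 (by simpa using hs)
        · refine hvu' ((1 - s)⁻¹ * s) ?_
          have e : (1 - s) • v = s • u := by rw [sub_smul, one_smul]; nth_rw 1 [hs]; module
          rw [← smul_smul, ← e, smul_smul, inv_mul_cancel₀ (sub_ne_zero.2 hs1.symm), one_smul]
    obtain ⟨R, hR⟩ := kron_one_of_ct hJ (by omega) h0 fun u v huv => by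
      by_cases hu : u = 0
      · rw [hu, ← zero_smul F (0 : Fin m → F), H99.TensorS.ct_smul_left, zero_smul]
      by_cases hv : ∀ s : F, v ≠ s • u
      · exact h1 u v hu hv huv
      push Not at hv
      obtain ⟨s, rfl⟩ := hv
      rw [H99.TensorS.ct_smul_right, h0, smul_zero]
    exact ⟨R, hR⟩
  push Not at h1
  obtain ⟨u, v, hu, hv, huv, hct⟩ := h1
  have hv0 : v ≠ 0 := fun h => hv 0 (by rw [h, zero_smul])
  have h := C.double H two (Finset.mem_univ r) hX (u := u) (v := v) huv
  set W := Nr u * X * Nr v + Nr v * X * Nr u with hWd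
  have hret : ∀ (l : κ) (D : mm), l ≠ r → Fac l D X → Fac l D W := fun l D hl hD =>
    ((hD.sl_left hl.symm).sl_right hl.symm).add ((hD.sl_left hl.symm).sl_right hl.symm)
  refine Or.inr ?_
  by_cases hsym : ct _ J Z u v = ct _ J Z v u
  · have e : rI r W = ct _ J Z u v ⊗ₖ wedge J u v := by
      rw [hWd, hW, ← hsym, ← kronecker_add, wedge_eq two]
    refine ⟨W, wedge J u v, fun h0 => ?_, h, Or.inr ⟨u, v, hu, hv, huv, rfl⟩, ⟨_, e⟩, hret⟩
    rw [h0, map_zero] at e
    exact hct (kron_cancel (H99.TensorS.wedge_ne hJ hu hv) (e.symm.trans (zero_kronecker _).symm))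
  · have huv' : ∀ s : F, v ≠ s • (u + v) := fun s hs => by
      rcases eq_or_ne s 1 with rfl | hs1
      · exact hu (by simpa using hs)
      · refine hv ((1 - s)⁻¹ * s) ?_
        have e : (1 - s) • v = s • u := by rw [sub_smul, one_smul]; nth_rw 1 [hs]; module
        rw [← smul_smul, ← e, smul_smul, inv_mul_cancel₀ (sub_ne_zero.2 hs1.symm), one_smul]
    obtain ⟨g, hg, gu, gv⟩ := H.mv_map_pair (σ r) hu hv huv (x' := u + v) (y' := v)
      (fun h => hv (-1) (by rw [neg_one_smul]; exact eq_neg_of_add_eq_zero_right h))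
      huv' (by rw [H99.TensorS.bf_add_left, huv, hJ.self, add_zero])
    have h2 := C.add _ _ (C.conj r (Finset.mem_univ r) g hg _ h) h
    set W' := sl r g * W * sl r (adj J J g) + W with hW'
    have e : rI r W' = (ct _ J Z u v + ct _ J Z v u) ⊗ₖ H99.TensorS.rk J v v := by
      rw [hW', map_add, map_mul, map_mul, rI_sl_self, rI_sl_self, hWd, hW, Matrix.mul_add, Matrix.add_mul,
        ← mul_kronecker_mul, ← mul_kronecker_mul, ← mul_kronecker_mul, ← mul_kronecker_mul, Matrix.one_mul,
        Matrix.mul_one, Matrix.one_mul, Matrix.mul_one, H99.TensorS.rk_conj hJ, H99.TensorS.rk_conj hJ, gu, gv,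
        H99.TensorS.rk_add_left, H99.TensorS.rk_add_right, kronecker_add, kronecker_add, add_kronecker,
        show ∀ A B C D : Matrix (({l : κ // l ≠ r} → Fin m) × Fin m) (({l : κ // l ≠ r} → Fin m) × Fin m) F,
          A + B + (C + D) + (A + C) = B + D + ((A + A) + (C + C)) by intros; abel,
        add_self_mat two, add_self_mat two, add_zero, add_zero]
    refine ⟨W', H99.TensorS.rk J v v, fun h0 => ?_, h2, Or.inl ⟨v, hv0, rfl⟩, ⟨_, e⟩, fun l D hl hD =>
      (((hret l D hl hD).sl_left hl.symm).sl_right hl.symm).add (hret l D hl hD)⟩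
    rw [h0, map_zero] at e
    have := kron_cancel (IsN.ne hJ ⟨v, hv0, rfl⟩) (e.symm.trans (zero_kronecker _).symm)
    refine hsym ?_
    rw [eq_neg_of_add_eq_zero_left this, neg_mat two]

/-- A middle part which is not scalar gives all monomial elements with one alternating part. -/
theorem top_of_inK [Finite F] (hm : 6 ≤ m) {i : ι} {Qf : (({l : ι // l ≠ i} → Fin m) × Fin m → F) → F}
    (O : OvR (tens {l : ι // l ≠ i} J) J Qf (slotM i M))
    {C₀ : Matrix ({l : ι // l ≠ i} → Fin m) ({l : ι // l ≠ i} → Fin m) F}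
    (hC₀ : InK (tens {l : ι // l ≠ i} J) J (slotM i M) C₀) (hns : ∀ c : F, C₀ ≠ c • 1) :
    ∀ o, Mono J M (Finset.univ.erase o) {o} := by
  classical
  have hJ := H.sJ
  have C := cl_inK H O
  obtain ⟨a₀, ha₀⟩ : ∃ a : {l : ι // l ≠ i}, ¬ Fac a 1 C₀ := by
    by_contra hc
    push Not at hc
    have hne : ∀ _ : {l : ι // l ≠ i}, (1 : mm) ≠ 0 := fun _ h => by
      have := congrFun (congrFun h ⟨0, by omega⟩) ⟨0, by omega⟩
      simp at this
    obtain ⟨c, hc'⟩ := eq_wm_of_fac hne hc
    exact hns c (by rw [hc', wm_one])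
  obtain ⟨X₁, B₁, hX₁, hS₁, hB₁, hF₁, -⟩ := (step_two H two C hm hC₀ (r := a₀)).resolve_left ha₀
  -- all factors
  have key : ∀ D : Finset {l : ι // l ≠ i}, ∃ (X : Matrix ({l : ι // l ≠ i} → Fin m) ({l : ι // l ≠ i} → Fin m) F) (k : {l : ι // l ≠ i} → mm), X ≠ 0 ∧
      InK (tens {l : ι // l ≠ i} J) J (slotM i M) X ∧ (∀ l, k l = 1 ∨ IsN J (k l) ∨ IsT J (k l)) ∧
      (IsN J (k a₀) ∨ IsT J (k a₀)) ∧ ∀ l ∈ insert a₀ D, Fac l (k l) X := by
    intro D
    induction D using Finset.induction with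
    | empty =>
      refine ⟨X₁, Function.update (fun _ => 1) a₀ B₁, hX₁, hS₁, fun l => ?_, by rw [Function.update_self]; exact hB₁,
        fun l hl => ?_⟩
      · by_cases hl : l = a₀
        · subst hl; rw [Function.update_self]; exact Or.inr hB₁
        · exact Or.inl (Function.update_of_ne hl _ _)
      · rw [Finset.mem_insert] at hl
        obtain rfl := hl.resolve_right (Finset.notMem_empty l)
        rwa [Function.update_self]
    | insert a D ha ih =>
      obtain ⟨X, k, hX, hS, hk, hk0, hfac⟩ := ih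
      by_cases haD : a ∈ insert a₀ D
      · exact ⟨X, k, hX, hS, hk, hk0, fun l hl => hfac l (by
          rw [Finset.mem_insert, Finset.mem_insert] at hl
          rcases hl with rfl | rfl | h
          · exact Finset.mem_insert_self _ _
          · exact haD
          · exact Finset.mem_insert_of_mem h)⟩
      have ha0 : a₀ ≠ a := fun e => haD (e ▸ Finset.mem_insert_self _ _)
      have hother : ∀ l ∈ insert a₀ (insert a D), l ≠ a → l ∈ insert a₀ D := fun l hl hla => by
        simp only [Finset.mem_insert] at hl ⊢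
        tauto
      rcases step_two H two C hm hS (r := a) with h1 | ⟨X', B, hX', hS', hB, hF, hret⟩
      · refine ⟨X, Function.update k a 1, hX, hS, fun l => ?_, by rw [Function.update_of_ne ha0]; exact hk0,
          fun l hl => ?_⟩
        · by_cases hla : l = a
          · subst hla; exact Or.inl (Function.update_self _ _ _)
          · rw [Function.update_of_ne hla]; exact hk l
        · by_cases hla : l = a
          · subst hla; rwa [Function.update_self]
          · rw [Function.update_of_ne hla]; exact hfac l (hother l hl hla)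
      · refine ⟨X', Function.update k a B, hX', hS', fun l => ?_, by rw [Function.update_of_ne ha0]; exact hk0,
          fun l hl => ?_⟩
        · by_cases hla : l = a
          · subst hla; rw [Function.update_self]; exact Or.inr hB
          · rw [Function.update_of_ne hla]; exact hk l
        · by_cases hla : l = a
          · subst hla; rwa [Function.update_self]
          · rw [Function.update_of_ne hla]; exact hret l _ hla (hfac l (hother l hl hla))
  obtain ⟨X, k, hX, hS, hk, hk0, hfac⟩ := key Finset.univ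
  have hm0 : (1 : mm) ≠ 0 := fun h => by
    have := congrFun (congrFun h ⟨0, by omega⟩) ⟨0, by omega⟩
    simp at this
  have hkne : ∀ l, k l ≠ 0 := fun l => by
    rcases hk l with h | h | h
    · rw [h]; exact hm0
    · exact h.ne hJ
    · exact h.ne hJ
  obtain ⟨c, hXc⟩ := eq_wm_of_fac hkne fun l => hfac l (by simp)
  have hc : c ≠ 0 := fun h => hX (by rw [hXc, h, zero_smul])
  have hadj : adj (tens {l : ι // l ≠ i} J) (tens {l : ι // l ≠ i} J) X = X := by
    rw [hXc, H99.TensorS.adj_smul, adj_tens_wm hJ.unit]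
    congr 2
    funext l
    rcases hk l with h | h | h
    · rw [h, H99.TensorS.adj_one hJ.unit]
    · exact isN_adj two hJ h
    · exact isT_adj hJ h
  have hXX : adj (tens {l : ι // l ≠ i} J) (tens {l : ι // l ≠ i} J) X * X = 0 := by
    rw [hadj, hXc, smul_mul_smul_comm, wm1_mul, wm1_eq_zero a₀ (hk0.elim (IsN.sq hJ) (IsT.sq hJ)), smul_zero]
  obtain ⟨z, hz⟩ : ∃ z : Fin m → F, z ≠ 0 := ⟨Pi.single ⟨0, by omega⟩ 1, by simp [Pi.single_eq_zero_iff]⟩
  obtain ⟨η, hη, hη'⟩ := hJ.exists_indep (by rw [Fintype.card_fin]; omega) z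
  have hel := O.inK_exact hS hXX hη hη'
  rw [H99.TensorS.el_lft O.sA, hadj, zero_kronecker, add_zero, add_assoc, ← kronecker_add,
    add_comm (H99.TensorS.rk J η z), ← wedge_eq two] at hel
  obtain ⟨y, hy, ey⟩ := inM_slotM.1 hel
  set K : ι → mm := fun l => if h : l = i then wedge J z η else k ⟨l, h⟩ with hK
  have hKi : K i = wedge J z η := dif_pos rfl
  have hmem : Mem M (1 + c • wm 1 K) := by
    refine ⟨y, hy, (rI i).injective ?_⟩
    rw [ey, map_add, map_one, map_smul, rI_tens, hKi, ← smul_kronecker, hXc]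
    congr 4
    funext l
    simp only [hK, dif_neg l.2]
  have hTi : IsT J (K i) := by
    rw [hKi]; exact isT_of_pair hJ hz hη' hη
  have hK3 : ∀ l, K l = 1 ∨ IsN J (K l) ∨ IsT J (K l) := fun l => by
    by_cases hl : l = i
    · subst hl; exact Or.inr (Or.inr hTi)
    · rw [show K l = k ⟨l, hl⟩ from dif_neg hl]; exact hk _
  set P : Finset ι := Finset.univ.filter fun l => l ≠ i ∧ IsN J (K l)
  set Q : Finset ι := Finset.univ.filter fun l => l ∉ P ∧ IsT J (K l)
  have hd : Disjoint P Q := Finset.disjoint_left.2 fun l hlP hlQ => (Finset.mem_filter.1 hlQ).2.1 hlP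
  have hiQ : i ∈ Q := Finset.mem_filter.2 ⟨Finset.mem_univ i, fun h => (Finset.mem_filter.1 h).2.1 rfl, hTi⟩
  have hmono : Mono J M P Q := H.mono_two two hc (fun l hl => (Finset.mem_filter.1 hl).2.2)
    (fun l hl => (Finset.mem_filter.1 hl).2.2) (fun l hlP hlQ => by
      rcases hK3 l with h | h | h
      · exact h
      · refine absurd (Finset.mem_filter.2 ⟨Finset.mem_univ l, ?_, h⟩) hlP
        exact fun e => hlQ (e ▸ hiQ)
      · exact absurd (Finset.mem_filter.2 ⟨Finset.mem_univ l, hlP, h⟩) hlQ)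
    ⟨i, hiQ⟩ hd hmem
  refine H.top_two two hm hmono hd ⟨i, hiQ⟩ ?_
  have ha : (a₀ : ι) ∈ P ∪ Q := by
    have e : K a₀ = k a₀ := dif_neg a₀.2
    rw [Finset.mem_union]
    by_cases h : (a₀ : ι) ∈ P
    · exact Or.inl h
    · refine Or.inr (Finset.mem_filter.2 ⟨Finset.mem_univ _, h, ?_⟩)
      rw [e]
      refine hk0.resolve_left fun hN => h (Finset.mem_filter.2 ⟨Finset.mem_univ _, a₀.2, ?_⟩)
      rw [e]; exact hN
  calc 2 = ({i, (a₀ : ι)} : Finset ι).card := (Finset.card_pair (Ne.symm a₀.2)).symm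
    _ ≤ _ := Finset.card_le_card fun l hl => by
      simp only [Finset.mem_insert, Finset.mem_singleton] at hl
      rcases hl with rfl | rfl
      · exact Finset.mem_union_right _ hiQ
      · exact ha

/-- With scalar middle parts the conjugates of the factor transvections lie in one factor. -/
theorem split_two [Finite F] {i : ι} {Qf : (({l : ι // l ≠ i} → Fin m) × Fin m → F) → F}
    (O : OvR (tens {l : ι // l ≠ i} J) J Qf (slotM i M))
    (hsc : ∀ C, InK (tens {l : ι // l ≠ i} J) J (slotM i M) C →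
      ∃ c : F, C = c • (1 : Matrix ({l : ι // l ≠ i} → Fin m) ({l : ι // l ≠ i} → Fin m) F))
    {g : GL (ι → Fin m) F} (hg : g ∈ M) {v : Fin m → F} (hv : v ≠ 0) :
    (∃ K, rI i ((g : MM) * sl i (H99.TensorS.rk J v v) * ((g⁻¹ : GL (ι → Fin m) F) : MM)) = K ⊗ₖ (1 : mm)) ∨
      ∃ N : mm, rI i ((g : MM) * sl i (H99.TensorS.rk J v v) * ((g⁻¹ : GL (ι → Fin m) F) : MM)) = 1 ⊗ₖ N := by
  have hm := O.six
  haveI : NeZero m := ⟨by omega⟩
  haveI : Nonempty ({l : ι // l ≠ i} → Fin m) := ⟨fun _ => 0⟩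
  have hgM : InM (slotM i M) (rI i (g : MM)) := inM_slotM.2 ⟨g, hg, rfl⟩
  have hinv : adj (tens {l : ι // l ≠ i} J ⊗ₖ J) (tens {l : ι // l ≠ i} J ⊗ₖ J) (rI i (g : MM)) =
      rI i ((g⁻¹ : GL (ι → Fin m) F) : MM) := by
    have h := O.unit hgM
    calc _ = adj (tens {l : ι // l ≠ i} J ⊗ₖ J) (tens {l : ι // l ≠ i} J ⊗ₖ J) (rI i (g : MM)) *
        (rI i (g : MM) * rI i ((g⁻¹ : GL (ι → Fin m) F) : MM)) := by
          rw [← map_mul, Units.mul_inv, map_one, Matrix.mul_one]
      _ = _ := by rw [← Matrix.mul_assoc, h, Matrix.one_mul]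
  refine O.root_split two hsc ⟨_, v, hgM, hv, ?_⟩
  rw [map_mul, map_mul, rI_sl_self, hinv]

end Cfsg.Agent.H5.C7.Even
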