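import Cfsg.Agent.H5.C7.Even.Base
import Cfsg.Agent.H5.C7.SympRoots
import Cfsg.Agent.H99.TensorS.Conjugate
import Cfsg.Agent.H99.TensorS.Maximal

/-!
Characteristic two: conjugates of the transvections of the second factor, and their products when one of them is
not a pure tensor.
-/

set_option autoImplicit false
set_option linter.unusedSectionVars false

namespace Cfsg.Agent.H5.C7.Even

open Matrix
open Cfsg.Agent.H99.Tensor Cfsg.Agent.H99.TensorS
open scoped Kronecker

variable {F : Type*} [Field F] {α : Type} [Fintype α] [DecidableEq α] {b : ℕ} {JA : Matrix α α F}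
  {JB : Matrix (Fin b) (Fin b) F}

local notation "Ix" => α × Fin b

section Char

theorem add_self_mat (two : (2 : F) = 0) {m n : Type} (X : Matrix m n F) : X + X = 0 := by
  rw [← two_smul F X, two, zero_smul]

theorem neg_mat (two : (2 : F) = 0) {m n : Type} (X : Matrix m n F) : -X = X :=
  (eq_neg_of_add_eq_zero_left (add_self_mat two X)).symm

theorem neg_val (two : (2 : F) = 0) (a : F) : -a = a := by linear_combination (-a) * two

theorem exists_sqrt [Finite F] (two : (2 : F) = 0) (a : F) : ∃ l : F, l * l = a := by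
  have := Fintype.ofFinite F
  have hp : ringChar F = 2 := CharP.ringChar_of_prime_eq_zero Nat.prime_two (by exact_mod_cast two)
  obtain ⟨l, hl⟩ := FiniteField.isSquare_of_char_two hp a
  exact ⟨l, hl.symm⟩

end Char

section Vectors

theorem lft_mulVec (v : Fin b → F) (c : α → F) : lft α v *ᵥ c = H99.TensorS.pv c v := by
  funext p
  simp [mulVec, dotProduct, lft_apply, H99.TensorS.pv, mul_comm]

theorem phi_pv (p v : Fin b → F) (c : α → F) :
    phi α JB p *ᵥ H99.TensorS.pv c v = bf JB p v • c := by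
  rw [← lft_mulVec, mulVec_mulVec, phi_lft, smul_mulVec, one_mulVec]

theorem lft_mulVec_inj {v : Fin b → F} (hv : v ≠ 0) : Function.Injective (lft α v).mulVec := by
  intro c c' h
  obtain ⟨k, hk⟩ := Function.ne_iff.1 hv
  funext i
  have := congrFun h (i, k)
  rw [lft_mulVec, lft_mulVec] at this
  exact mul_right_cancel₀ hk this

theorem rank_mul_inj {l m n : Type} [Fintype m] [Fintype n] [Fintype l] (A : Matrix l m F)
    (hA : Function.Injective A.mulVec) (B : Matrix m n F) : (A * B).rank = B.rank := by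
  rw [Matrix.rank, Matrix.rank, mulVecLin_mul, LinearMap.range_comp]
  exact (Submodule.equivMapOfInjective _ (fun x y h => hA h) _).finrank_eq.symm

theorem rank_add_le' {m n : Type} [Fintype m] [Fintype n] (A B : Matrix m n F) :
    (A + B).rank ≤ A.rank + B.rank := by
  rw [Matrix.rank, Matrix.rank, Matrix.rank]
  refine le_trans (Submodule.finrank_mono ?_) (Submodule.finrank_add_le_finrank_add_finrank _ _)
  rintro _ ⟨x, rfl⟩
  rw [mulVecLin_apply, add_mulVec]
  exact Submodule.add_mem_sup ⟨x, rfl⟩ ⟨x, rfl⟩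

theorem ker_of_rank_le {l m n : Type} [Fintype m] [Fintype n] [Fintype l] (P : Matrix l m F) (Q : Matrix m n F)
    (h : Q.rank ≤ (P * Q).rank) {k : n → F} (hk : (P * Q) *ᵥ k = 0) : Q *ᵥ k = 0 := by
  have h1 := LinearMap.finrank_range_add_finrank_ker Q.mulVecLin
  have h2 := LinearMap.finrank_range_add_finrank_ker (P * Q).mulVecLin
  rw [Matrix.rank, Matrix.rank] at h
  have hle : LinearMap.ker Q.mulVecLin ≤ LinearMap.ker (P * Q).mulVecLin := fun x hx => by
    rw [LinearMap.mem_ker] at hx ⊢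
    rw [mulVecLin_mul, LinearMap.comp_apply, hx, map_zero]
  have he := Submodule.eq_of_le_of_finrank_le hle (by omega)
  have : k ∈ LinearMap.ker Q.mulVecLin := by rw [he]; exact hk
  exact this

theorem isUnit_det_of_inj {h : Matrix α α F} (hh : Function.Injective h.mulVec) : IsUnit h.det := by
  rw [← Matrix.isUnit_iff_isUnit_det]
  exact mulVec_injective_iff_isUnit.1 hh

end Vectors

/-- A conjugate of the root of the second factor. -/
def IsConjRoot (JA : Matrix α α F) (JB : Matrix (Fin b) (Fin b) F) (M : Subgroup (GL (α × Fin b) F))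
    (B : Matrix (α × Fin b) (α × Fin b) F) : Prop :=
  ∃ (g : Matrix (α × Fin b) (α × Fin b) F) (w : Fin b → F), InM M g ∧ w ≠ 0 ∧
    B = g * ((1 : Matrix α α F) ⊗ₖ H99.TensorS.rk JB w w) * adj (JA ⊗ₖ JB) (JA ⊗ₖ JB) g

variable {Q : (α × Fin b → F) → F} {M : Subgroup (GL (α × Fin b) F)} (H : OvR JA JB Q M) (two : (2 : F) = 0)
include H two

omit two in
theorem OvR.root_one {w : Fin b → F} (hw : w ≠ 0) : IsConjRoot JA JB M ((1 : Matrix α α F) ⊗ₖ H99.TensorS.rk JB w w) :=
  ⟨1, w, InM.one, hw, by rw [Matrix.one_mul, adj_one H.unitJ, Matrix.mul_one]⟩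

omit two in
theorem OvR.root_conj {B g : Matrix Ix Ix F} (hB : IsConjRoot JA JB M B) (hg : InM M g) :
    IsConjRoot JA JB M (g * B * adj (JA ⊗ₖ JB) (JA ⊗ₖ JB) g) := by
  obtain ⟨g', w, hg', hw, rfl⟩ := hB
  refine ⟨g * g', w, hg.mul hg', hw, ?_⟩
  rw [adj_mul H.unitJ]
  simp only [Matrix.mul_assoc]

omit two in
theorem OvR.root_mem {B : Matrix Ix Ix F} (hB : IsConjRoot JA JB M B) : InM M (1 + B) := by
  obtain ⟨g, w, hg, -, rfl⟩ := hB
  refine H.conj ?_ hg
  have := H.right w 1
  rwa [one_smul, kronecker_add, one_kronecker_one] at this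

omit two in
theorem OvR.root_sq {B : Matrix Ix Ix F} (hB : IsConjRoot JA JB M B) : B * B = 0 := by
  obtain ⟨g, w, hg, -, rfl⟩ := hB
  set J := JA ⊗ₖ JB
  set R := (1 : Matrix α α F) ⊗ₖ H99.TensorS.rk JB w w
  have hR : R * R = 0 := by
    simp only [R, ← mul_kronecker_mul, rk_mul, H.sB.self, zero_smul, kronecker_zero]
  calc g * R * adj J J g * (g * R * adj J J g) = g * (R * (adj J J g * g) * R) * adj J J g := by
        simp only [Matrix.mul_assoc]
    _ = 0 := by rw [H.unit hg, Matrix.mul_one, hR, Matrix.mul_zero, Matrix.zero_mul]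

theorem OvR.root_adj {B : Matrix Ix Ix F} (hB : IsConjRoot JA JB M B) :
    adj (JA ⊗ₖ JB) (JA ⊗ₖ JB) B = B := by
  obtain ⟨g, w, hg, -, rfl⟩ := hB
  rw [adj_mul H.unitJ, adj_mul H.unitJ, H.adjJ_adjJ, adj_kron, adj_one H.sA.unit, adj_rk H.sB, neg_mat two,
    Matrix.mul_assoc]

omit two in
theorem OvR.root_rank {B : Matrix Ix Ix F} (hB : IsConjRoot JA JB M B) : B.rank = Fintype.card α := by
  obtain ⟨g, w, hg, hw, rfl⟩ := hB
  have hd : IsUnit (adj (JA ⊗ₖ JB) (JA ⊗ₖ JB) g * g).det := by rw [H.unit hg, det_one]; exact isUnit_one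
  rw [det_mul, IsUnit.mul_iff] at hd
  rw [rank_mul_eq_left_of_isUnit_det _ _ hd.1, rank_mul_eq_right_of_isUnit_det _ _ hd.2, ← lft_phi,
    rank_mul_inj _ (lft_mulVec_inj hw)]
  refine le_antisymm (rank_le_card_height _) ?_
  obtain ⟨w', hw'⟩ := H.sB.exists_one hw
  calc Fintype.card α = (1 : Matrix α α F).rank := rank_one.symm
    _ = (phi α JB w * lft α w').rank := by rw [phi_lft, hw', one_smul]
    _ ≤ _ := rank_mul_le_left _ _

theorem OvR.inv_sq {B : Matrix Ix Ix F} (hB : IsConjRoot JA JB M B) : (1 + B) * (1 + B) = 1 := by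
  rw [Matrix.mul_add, Matrix.mul_one, Matrix.add_mul, Matrix.one_mul, H.root_sq hB, add_zero, add_assoc,
    add_self_mat two, add_zero]

theorem OvR.adj_inv {B : Matrix Ix Ix F} (hB : IsConjRoot JA JB M B) :
    adj (JA ⊗ₖ JB) (JA ⊗ₖ JB) (1 + B) = 1 + B := by
  rw [adj_add, adj_one H.unitJ, H.root_adj two hB]

variable [Nonempty α]

omit two in
/-- A root with a rank one part in the second factor. -/
theorem OvR.root_inj {e : Matrix Ix Ix F} (he : e * e = 1) {v : Fin b → F} (hv : v ≠ 0) :
    Function.Injective (e * lft α v).mulVec := by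
  intro c c' h
  refine lft_mulVec_inj hv ?_
  have := congrArg (e *ᵥ ·) h
  simp only [← mulVec_mulVec] at this
  rwa [mulVec_mulVec, mulVec_mulVec _ e e, he, one_mulVec, one_mulVec] at this

/-- A pure root lies in one factor. -/
theorem OvR.pure_split [Finite F] {B : Matrix Ix Ix F} (hB : IsConjRoot JA JB M B) (hp : IsPure (1 + B)) :
    (∃ K : Matrix α α F, B = K ⊗ₖ (1 : Matrix (Fin b) (Fin b) F)) ∨
      ∃ N : Matrix (Fin b) (Fin b) F, B = (1 : Matrix α α F) ⊗ₖ N := by
  have hb := H.six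
  have : NeZero b := ⟨by omega⟩
  obtain ⟨G, K, hGK⟩ := hp
  have h1 := H.inv_sq two hB
  rw [hGK, ← mul_kronecker_mul] at h1
  obtain ⟨μ, hμ0, hG, hK⟩ := kron_eq_one h1
  obtain ⟨l, hl⟩ := exists_sqrt two μ
  have hl0 : l ≠ 0 := fun h => hμ0 (by rw [← hl, h, mul_zero])
  have sq : ∀ {n : Type} [Fintype n] [DecidableEq n] (Z : Matrix n n F), Z * Z = 1 → (Z - 1) * (Z - 1) = 0 := by
    intro n _ _ Z hZ
    rw [Matrix.sub_mul, Matrix.mul_sub, Matrix.mul_one, Matrix.one_mul, hZ,
      show (1 : Matrix n n F) - Z - (Z - 1) = (1 + 1) - (Z + Z) by abel, add_self_mat two, add_self_mat two,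
      sub_zero]
  set X := l⁻¹ • G - 1 with hX
  set Y := l • K - 1 with hY
  have hXX : X * X = 0 := sq _ (by
    rw [Matrix.smul_mul, Matrix.mul_smul, hG, smul_smul, smul_smul, ← hl]
    rw [show l⁻¹ * l⁻¹ * (l * l) = 1 by field_simp, one_smul])
  have hYY : Y * Y = 0 := sq _ (by
    rw [Matrix.smul_mul, Matrix.mul_smul, hK, smul_smul, smul_smul, ← hl]
    rw [show l * l * (l * l)⁻¹ = 1 by field_simp, one_smul])
  have hBe : B = (1 + X) ⊗ₖ (1 + Y) - 1 := by
    rw [hX, hY, add_sub_cancel, add_sub_cancel, smul_kronecker, kronecker_smul, smul_smul, inv_mul_cancel₀ hl0,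
      one_smul, ← hGK, add_sub_cancel_left]
  by_cases hX0 : X = 0
  · refine Or.inr ⟨Y, ?_⟩
    rw [hBe, hX0, add_zero, kronecker_add, one_kronecker_one, add_sub_cancel_left]
  by_cases hY0 : Y = 0
  · refine Or.inl ⟨X, ?_⟩
    rw [hBe, hY0, add_zero, add_kronecker, one_kronecker_one, add_sub_cancel_left]
  exfalso
  obtain ⟨v, hv⟩ : ∃ v, Y *ᵥ v ≠ 0 := by
    by_contra hc
    push Not at hc
    exact hY0 (Matrix.ext_of_mulVec_single fun i => by rw [hc, zero_mulVec])
  obtain ⟨a, ha⟩ : ∃ a, X *ᵥ a ≠ 0 := by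
    by_contra hc
    push Not at hc
    exact hX0 (Matrix.ext_of_mulVec_single fun i => by rw [hc, zero_mulVec])
  set y := Y *ᵥ v with hy
  have hYy : Y *ᵥ y = 0 := by rw [hy, mulVec_mulVec, hYY, zero_mulVec]
  have hvy : LinearIndependent F ![y, v] := by
    refine (LinearIndependent.pair_iff' hv).2 fun c hc => ?_
    have := congrArg (Y *ᵥ ·) hc
    simp only [mulVec_smul, hYy, smul_zero] at this
    exact hv this.symm
  have key : ∀ (v' : Fin b → F) (c : α → F), B *ᵥ H99.TensorS.pv c v' =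
      H99.TensorS.pv ((1 + X) *ᵥ c) (Y *ᵥ v') + H99.TensorS.pv (X *ᵥ c) v' := by
    intro v' c
    rw [hBe, sub_mulVec, kron_pv, one_mulVec, add_mulVec, one_mulVec, add_mulVec, one_mulVec]
    funext p
    simp only [H99.TensorS.pv, Pi.add_apply, Pi.sub_apply]
    ring
  have row : ∀ (p q : α → F) (i : α) (v' : Fin b → F),
      (fun k => H99.TensorS.pv p y (i, k) + H99.TensorS.pv q v' (i, k)) = p i • y + q i • v' := by
    intro p q i v'
    funext k
    simp [H99.TensorS.pv]
  -- the image of one fibre is the whole image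
  have hinj : Function.Injective (B * lft α v).mulVec := by
    intro c c' hcc
    have h0 : (B * lft α v) *ᵥ (c - c') = 0 := by rw [mulVec_sub, hcc, sub_self]
    rw [← mulVec_mulVec, lft_mulVec, key] at h0
    refine sub_eq_zero.1 ?_
    generalize c - c' = d at h0
    have hz : ∀ i, ((1 + X) *ᵥ d) i = 0 ∧ (X *ᵥ d) i = 0 := fun i => by
      have e : ((1 + X) *ᵥ d) i • y + (X *ᵥ d) i • v = 0 := by
        rw [← row]; funext k; exact congrFun h0 (i, k)
      exact (LinearIndependent.pair_iff.1 hvy) _ _ e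
    funext i
    have := (hz i).1
    rwa [add_mulVec, one_mulVec, Pi.add_apply, (hz i).2, add_zero] at this
  have hrange : LinearMap.range (B * lft α v).mulVecLin = LinearMap.range B.mulVecLin := by
    refine Submodule.eq_of_le_of_finrank_le ?_ ?_
    · rw [mulVecLin_mul]; exact LinearMap.range_comp_le_range _ _
    · have h2 := LinearMap.finrank_range_of_inj (f := (B * lft α v).mulVecLin) hinj
      rw [h2, Module.finrank_fintype_fun_eq_card, ← H.root_rank hB]
      rfl
  obtain ⟨v', hv'k, hv'⟩ : ∃ v', Y *ᵥ v' = 0 ∧ v' ∉ Submodule.span F ({y, v} : Set (Fin b → F)) := by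
    by_contra hc
    push Not at hc
    have hle : LinearMap.ker Y.mulVecLin ≤ Submodule.span F ({y, v} : Set (Fin b → F)) := fun x hx => hc x hx
    have h2 : Module.finrank F (Submodule.span F ({y, v} : Set (Fin b → F))) ≤ 2 := by
      classical
      refine (finrank_span_le_card _).trans ?_
      simp only [Set.toFinset_insert, Set.toFinset_singleton]
      exact Finset.card_le_two
    have h3 := LinearMap.finrank_range_add_finrank_ker Y.mulVecLin
    have h4 : Module.finrank F (LinearMap.range Y.mulVecLin) ≤ Module.finrank F (LinearMap.ker Y.mulVecLin) := by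
      refine Submodule.finrank_mono ?_
      rintro _ ⟨x, rfl⟩
      rw [LinearMap.mem_ker, mulVecLin_apply, mulVecLin_apply, mulVec_mulVec, hYY, zero_mulVec]
    have h5 := Submodule.finrank_mono hle
    rw [Module.finrank_fintype_fun_eq_card, Fintype.card_fin] at h3
    omega
  have hmem : B *ᵥ H99.TensorS.pv a v' ∈ LinearMap.range (B * lft α v).mulVecLin := by
    rw [hrange]; exact ⟨_, rfl⟩
  obtain ⟨c, hc⟩ := hmem
  rw [mulVecLin_apply, ← mulVec_mulVec, lft_mulVec, key, key, hv'k] at hc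
  obtain ⟨i, hi⟩ := Function.ne_iff.1 ha
  rw [Pi.zero_apply] at hi
  refine hv' (Submodule.mem_span_pair.2 ⟨((X *ᵥ a) i)⁻¹ * ((1 + X) *ᵥ c) i, ((X *ᵥ a) i)⁻¹ * (X *ᵥ c) i, ?_⟩)
  have e : ((1 + X) *ᵥ c) i • y + (X *ᵥ c) i • v = (X *ᵥ a) i • v' := by
    rw [← row]
    funext k
    have := congrFun hc (i, k)
    simpa [H99.TensorS.pv] using this
  rw [← smul_smul, ← smul_smul, ← smul_add, e, smul_smul, inv_mul_cancel₀ hi, one_smul]

variable (hsc : ∀ C : Matrix α α F, InK JA JB M C → ∃ c : F, C = c • (1 : Matrix α α F))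
include hsc

/-- A conjugate of a root inside the second factor by an element that is not pure is not there. -/
theorem OvR.not_right {B : Matrix Ix Ix F} (hB : IsConjRoot JA JB M B) (hnp : ¬ IsPure (1 + B)) {p : Fin b → F}
    (hp : p ≠ 0) (N : Matrix (Fin b) (Fin b) F) :
    (1 + B) * ((1 : Matrix α α F) ⊗ₖ H99.TensorS.rk JB p p) * (1 + B) ≠ (1 : Matrix α α F) ⊗ₖ N := by
  intro hN
  set e := (1 : Matrix Ix Ix F) + B with he
  have hee : e * e = 1 := H.inv_sq two hB
  obtain ⟨v, hv⟩ : ∃ v, N *ᵥ v ≠ 0 := by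
    by_contra hc
    push Not at hc
    have hN0 : N = 0 := Matrix.ext_of_mulVec_single fun i => by rw [hc, zero_mulVec]
    rw [hN0, kronecker_zero] at hN
    have h1 := congrArg (fun Z => e * Z * e) hN
    simp only [Matrix.mul_zero, Matrix.zero_mul, ← Matrix.mul_assoc, hee, Matrix.one_mul] at h1
    rw [Matrix.mul_assoc, hee, Matrix.mul_one] at h1
    have h2 := H.root_rank (H.root_one (α := α) hp)
    rw [h1, rank_zero] at h2
    exact Fintype.card_ne_zero h2.symm
  set h' := phi α JB p * (e * lft α v) with hh'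
  have e1 : lft α (N *ᵥ v) = e * lft α p * h' := by
    have := congrArg (· * lft α v) hN
    simp only [kron_lft, Matrix.mul_one] at this
    rw [← this, ← lft_phi, hh']
    simp only [Matrix.mul_assoc]
  have hinj : Function.Injective h'.mulVec := fun c c' hcc => lft_mulVec_inj hv (by
    rw [e1, ← mulVec_mulVec, ← mulVec_mulVec c', hcc])
  have hu := isUnit_det_of_inj hinj
  refine hnp (H.pure_of_layer hsc hp hv (H.root_mem hB) (h := h'⁻¹) ?_ (isUnit_nonsing_inv_det _ hu))
  rw [e1, Matrix.mul_assoc _ h', mul_nonsing_inv _ hu, Matrix.mul_one]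

/-- Conjugates of roots of the second factor by a root that is not pure are not pure. -/
theorem OvR.conj_not_pure [Finite F] {B : Matrix Ix Ix F} (hB : IsConjRoot JA JB M B) (hnp : ¬ IsPure (1 + B))
    {p : Fin b → F} (hp : p ≠ 0) :
    ¬ IsPure (1 + (1 + B) * ((1 : Matrix α α F) ⊗ₖ H99.TensorS.rk JB p p) * (1 + B)) := by
  intro hpure
  have hb := H.six
  set e := (1 : Matrix Ix Ix F) + B with he
  have hee : e * e = 1 := H.inv_sq two hB
  have heM : InM M e := H.root_mem hB
  have hroot : ∀ {r : Fin b → F}, r ≠ 0 → IsConjRoot JA JB M (e * ((1 : Matrix α α F) ⊗ₖ H99.TensorS.rk JB r r) * e) := by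
    intro r hr
    have := H.root_conj (H.root_one (α := α) hr) heM
    rwa [H.adj_inv two hB] at this
  have hnr : ∀ {r : Fin b → F}, r ≠ 0 → ∀ N : Matrix (Fin b) (Fin b) F,
      e * ((1 : Matrix α α F) ⊗ₖ H99.TensorS.rk JB r r) * e ≠ (1 : Matrix α α F) ⊗ₖ N :=
    fun hr N => H.not_right two hsc hB hnp hr N
  clear_value e
  obtain ⟨K, hK⟩ : ∃ K : Matrix α α F, e * ((1 : Matrix α α F) ⊗ₖ H99.TensorS.rk JB p p) * e = K ⊗ₖ 1 :=
    (H.pure_split two (hroot hp) hpure).resolve_right fun ⟨N, hN⟩ => hnr hp N hN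
  have hcancel : ∀ X : Matrix Ix Ix F, e * (e * X * e) * e = X := fun X => by
    rw [← Matrix.mul_assoc, ← Matrix.mul_assoc, hee, Matrix.one_mul, Matrix.mul_assoc, hee, Matrix.mul_one]
  -- all conjugates are in the first factor
  have hall : ∀ r : Fin b → F, ∃ K : Matrix α α F, e * ((1 : Matrix α α F) ⊗ₖ H99.TensorS.rk JB r r) * e = K ⊗ₖ 1 := by
    intro r
    by_cases hr : r = 0
    · exact ⟨0, by rw [hr, rk_zero_left, kronecker_zero, Matrix.mul_zero, Matrix.zero_mul, zero_kronecker]⟩
    set T := (1 : Matrix α α F) ⊗ₖ (1 + H99.TensorS.rk JB r r) with hT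
    set E := e * T * e with hE
    have hEM : InM M E := by
      have := H.right (α := α) r 1
      rw [one_smul, ← hT] at this
      exact (heM.mul this).mul heM
    set P := (1 : Matrix α α F) ⊗ₖ H99.TensorS.rk JB p p with hP
    have hPT : (K ⊗ₖ (1 : Matrix (Fin b) (Fin b) F)) * T = T * (K ⊗ₖ 1) := by
      rw [hT, ← mul_kronecker_mul, ← mul_kronecker_mul, Matrix.one_mul, Matrix.mul_one, Matrix.one_mul,
        Matrix.mul_one]
    have hcomm : P * E = E * P := by
      rw [hE, ← hcancel P, hK]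
      calc e * (K ⊗ₖ 1) * e * (e * T * e) = e * ((K ⊗ₖ 1) * (e * e) * T) * e := by simp only [Matrix.mul_assoc]
        _ = e * (T * (e * e) * (K ⊗ₖ 1)) * e := by rw [hee, Matrix.mul_one, Matrix.mul_one, hPT]
        _ = _ := by simp only [Matrix.mul_assoc]
    obtain ⟨p', hp'⟩ := H.sB.exists_one hp
    set h := phi α JB p * (E * lft α p') with hh
    have hlay : E * lft α p = lft α p * h := by
      have := congrArg (· * lft α p') hcomm
      simp only [Matrix.mul_assoc] at this
      rw [hP, kron_lft, rk_mulVec, hp', one_smul, Matrix.mul_one, ← lft_phi, Matrix.mul_assoc, ← hh] at this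
      exact this.symm
    have hEE : E * E = 1 := by
      have hTT : T * T = 1 := by
        rw [hT, ← mul_kronecker_mul, Matrix.one_mul, Matrix.mul_add, Matrix.mul_one, Matrix.add_mul, Matrix.one_mul,
          rk_mul, H.sB.self, zero_smul, add_zero, add_assoc, add_self_mat two, add_zero, one_kronecker_one]
      calc E * E = e * (T * (e * e) * T) * e := by simp only [hE, Matrix.mul_assoc]
        _ = 1 := by rw [hee, Matrix.mul_one, hTT, Matrix.mul_one, hee]
    have hinj : Function.Injective h.mulVec := fun c c' hcc => H.root_inj hEE hp (by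
      rw [hlay, ← mulVec_mulVec, ← mulVec_mulVec c', hcc])
    have hpure' := H.pure_of_layer hsc hp hp hEM hlay (isUnit_det_of_inj hinj)
    have hE' : E = 1 + e * ((1 : Matrix α α F) ⊗ₖ H99.TensorS.rk JB r r) * e := by
      rw [hE, hT, kronecker_add, one_kronecker_one, Matrix.mul_add, Matrix.mul_one, Matrix.add_mul, hee]
    rw [hE'] at hpure'
    exact (H.pure_split two (hroot hr) hpure').resolve_right fun ⟨N, hN⟩ => hnr hr N hN
  -- hence so are those of all matrices of the second factor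
  have halg : ∀ X : Matrix (Fin b) (Fin b) F, ∃ K : Matrix α α F, e * ((1 : Matrix α α F) ⊗ₖ X) * e = K ⊗ₖ 1 := by
    intro X
    have hX : X ∈ Algebra.adjoin F (sympRoots JB) := by rw [sympRoots_adjoin H.sB]; exact Algebra.mem_top
    induction hX using Algebra.adjoin_induction with
    | mem r hr =>
      obtain ⟨v, -, rfl⟩ := hr
      obtain ⟨K, hK⟩ := hall v
      refine ⟨1 + K, ?_⟩
      rw [kronecker_add, one_kronecker_one, Matrix.mul_add, Matrix.mul_one, Matrix.add_mul, hee, hK, add_kronecker,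
        one_kronecker_one]
    | algebraMap c =>
      refine ⟨c • 1, ?_⟩
      rw [Algebra.algebraMap_eq_smul_one, kronecker_smul, smul_kronecker, one_kronecker_one, Matrix.mul_smul,
        Matrix.mul_one, Matrix.smul_mul, hee]
    | add x y _ _ hx hy =>
      obtain ⟨K, hK⟩ := hx
      obtain ⟨L, hL⟩ := hy
      exact ⟨K + L, by rw [kronecker_add, Matrix.mul_add, Matrix.add_mul, hK, hL, add_kronecker]⟩
    | mul x y _ _ hx hy =>
      obtain ⟨K, hK⟩ := hx
      obtain ⟨L, hL⟩ := hy
      refine ⟨K * L, ?_⟩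
      calc e * ((1 : Matrix α α F) ⊗ₖ (x * y)) * e
          = e * (((1 : Matrix α α F) ⊗ₖ x) * (e * e) * ((1 : Matrix α α F) ⊗ₖ y)) * e := by
            rw [hee, Matrix.mul_one, ← mul_kronecker_mul, Matrix.one_mul]
        _ = (e * ((1 : Matrix α α F) ⊗ₖ x) * e) * (e * ((1 : Matrix α α F) ⊗ₖ y) * e) := by
            simp only [Matrix.mul_assoc]
        _ = _ := by rw [hK, hL, ← mul_kronecker_mul, Matrix.one_mul]
  -- a commutator of large rank
  obtain ⟨s, hs⟩ := H.sB.even
  set D : Matrix (Fin b) (Fin b) F := Matrix.diagonal fun i => if (i : ℕ) < s then 1 else 0 with hD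
  set T : Matrix (Fin b) (Fin b) F := (1 : Matrix (Fin b) (Fin b) F).submatrix Fin.rev id with hT
  have hDT : D * T - T * D = T := by
    ext i j
    simp only [hD, hT, Matrix.sub_apply, diagonal_mul, mul_diagonal, submatrix_apply, id_eq, Matrix.one_apply]
    by_cases hij : Fin.rev i = j
    · subst hij
      have := i.isLt
      simp only [if_pos, mul_one, one_mul, Fin.val_rev]
      split_ifs with h1 h2 h2
      · omega
      · rw [sub_zero]
      · rw [zero_sub, neg_val two]
      · omega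
    · simp [hij]
  have hTu : IsUnit ((1 : Matrix α α F) ⊗ₖ T).det := by
    rw [det_kronecker, det_one, one_pow, one_mul]
    refine (IsUnit.mk0 _ fun h0 => ?_).pow _
    obtain ⟨v, hv, hTv⟩ := Matrix.exists_mulVec_eq_zero_iff.2 h0
    refine hv (funext fun i => ?_)
    have := congrFun hTv (Fin.rev i)
    simpa [hT, mulVec, dotProduct, Matrix.one_apply] using this
  obtain ⟨K', hK'⟩ := halg D
  set X := (1 : Matrix α α F) ⊗ₖ D with hX
  set T' := (1 : Matrix α α F) ⊗ₖ T with hT'
  have hKT : (K' ⊗ₖ (1 : Matrix (Fin b) (Fin b) F)) * T' = T' * (K' ⊗ₖ 1) := by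
    rw [hT', ← mul_kronecker_mul, ← mul_kronecker_mul, Matrix.one_mul, Matrix.mul_one, Matrix.one_mul,
      Matrix.mul_one]
  set Z := X - e * X * e with hZ
  have hsum : Z * T' - T' * Z = T' := by
    rw [hZ, hK', Matrix.sub_mul, Matrix.mul_sub, hKT,
      show X * T' - T' * (K' ⊗ₖ 1) - (T' * X - T' * (K' ⊗ₖ 1)) = X * T' - T' * X by abel, hX, hT',
      ← mul_kronecker_mul, ← mul_kronecker_mul, Matrix.one_mul, sub_eq_add_neg, neg_mat two, ← kronecker_add]
    conv_rhs => rw [← hDT, sub_eq_add_neg, neg_mat two]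
  have hZr : Z.rank ≤ 2 * Fintype.card α := by
    have eZ : Z = e * (B * X - X * B) * 1 := by
      have h1 : e * X - X * e = B * X - X * B := by rw [he]; noncomm_ring
      rw [← h1, Matrix.mul_one, Matrix.mul_sub, ← Matrix.mul_assoc, hee, Matrix.one_mul, hZ, ← Matrix.mul_assoc]
    rw [eZ, Matrix.mul_one]
    refine (rank_mul_le_right _ _).trans ?_
    rw [sub_eq_add_neg, neg_mat two]
    refine (rank_add_le' _ _).trans ?_
    have h1 := rank_mul_le_left B X
    have h2 := rank_mul_le_right X B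
    rw [H.root_rank hB] at h1 h2
    omega
  have hbig : T'.rank = Fintype.card α * b := by
    rw [rank_of_isUnit _ ((Matrix.isUnit_iff_isUnit_det _).2 hTu), Fintype.card_prod, Fintype.card_fin]
  have h3 : T'.rank ≤ 4 * Fintype.card α := by
    rw [← hsum, sub_eq_add_neg, neg_mat two]
    refine (rank_add_le' _ _).trans ?_
    have h1 := rank_mul_le_left Z T'
    have h2 := rank_mul_le_right T' Z
    omega
  rw [hbig] at h3
  have : 0 < Fintype.card α := Fintype.card_pos
  nlinarith

end Cfsg.Agent.H5.C7.Even
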